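import Cfsg.Agent.H979.Car.Pair
import Cfsg.Agent.H800.ME.Final
import Cfsg.Agent.Schreier.MTwelve

/-!
# S3852, row M: elements of order eleven (helper979)

`eleven : Moved 11 MG` : every element of order 11 of the model of the Monster is conjugate to a different power of itself.
-/

set_option autoImplicit false

namespace Cfsg.Agent.H979.Car

open Cfsg Subgroup Cfsg.Agent.H497.Stein
open Cfsg.Agent.LThreeMB (XX Zx mk exists_mk mk_eq_mk mk_congr)
open Cfsg.Agent.BpSpor.MBigModel (MG zz chart card_M)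
open Cfsg.Agent.H800.ME (Final.exists_x Final.dvd_XX Final.not_cube Final.prime11)
open Cfsg.Agent.H800.ME.CoFacts (s pc_of)

theorem mk_pow' {G : Type*} [Group G] {x g : G} (hg : g * x = x * g) (n : ℕ) (hn : g ^ n * x = x * g ^ n) :
    mk x hg ^ n = mk x hn := by
  rw [LThreeMB.mk, LThreeMB.mk, ← QuotientGroup.mk_pow]
  congr 1

/-- **S11** -/
theorem eleven : Moved 11 MG := by
  have hfin : Finite MG := BpSpor.MBigModel.finite
  have hsim : IsSimpleGroup MG := BpSpor.MBigModel.simple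
  have hF : Fact (Nat.Prime 11) := ⟨Final.prime11⟩
  obtain ⟨x, hx, hpx⟩ := Final.exists_x
  obtain ⟨c, hcx⟩ : ∃ c : MG, c = (x : MG) := ⟨_, rfl⟩
  have hc : orderOf c = 11 := by rw [hcx, Subgroup.orderOf_coe, hx]
  have hc11 : c ^ 11 = 1 := by rw [← hc, pow_orderOf_eq_one]
  have c12 : c = (c ^ 2) ^ 6 := by
    rw [← pow_mul, show 2 * 6 = 11 + 1 from rfl, pow_succ, hc11, one_mul]
  -- the quotient `C(c) / ⟨c⟩`
  obtain ⟨e⟩ : Spor.IsoM12 (XX c) := by
    rw [hcx]
    exact H800.ME.Twelve.iso chart hx hpx (Final.dvd_XX (by rw [Subgroup.orderOf_coe, hx]))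
  have hcard : Nat.card (XX c) = 95040 := by
    rw [Nat.card_congr e.toEquiv, Cfsg.Agent.MTwelveType.SylowModel.card_M12]
  have hfX : Finite (XX c) := Nat.finite_of_card_ne_zero (by rw [hcard]; norm_num)
  have hsX : IsSimpleGroup (XX c) := (MulEquiv.isSimpleGroup_congr e).2 Schreier.MTwelve.isSimpleGroup
  have hsq : ¬ 11 ^ 2 ∣ Nat.card (XX c) := by rw [hcard]; norm_num
  have hmX : Moved 11 (XX c) := by
    refine moved_of_not_sq ?_ Final.prime11 hsq
    intro hab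
    exact Schreier.MTwelve.not_isMulCommutative ⟨⟨fun a b => by
      have h1 := congrArg e (hab (e.symm a) (e.symm b))
      rwa [map_mul, map_mul, e.apply_symm_apply, e.apply_symm_apply] at h1⟩⟩
  -- the Sylow subgroup
  have hp1 : IsPGroup 11 (zpowers c) := IsPGroup.of_card (n := 1) (by rw [Nat.card_zpowers, hc, pow_one])
  obtain ⟨P, hP⟩ := hp1.exists_le_sylow
  have hPc : Nat.card (P : Subgroup MG) = 11 ^ 2 := by
    obtain ⟨k, hk⟩ := IsPGroup.iff_card.1 P.isPGroup'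
    have h1 : ¬ 3 ≤ k := fun h3 => Final.not_cube ((pow_dvd_pow 11 h3).trans (hk ▸ Subgroup.card_subgroup_dvd_card _))
    have h2 : 2 ≤ k := by
      have h3 : 11 ^ 2 ∣ Nat.card (P : Subgroup MG) := by
        rw [P.card_eq_multiplicity]
        refine pow_dvd_pow 11 ((Final.prime11.pow_dvd_iff_le_factorization Nat.card_pos.ne').1 ?_)
        rw [card_M]
        norm_num
      rw [hk] at h3
      exact (Nat.pow_dvd_pow_iff_le_right (by norm_num)).1 h3
    have h3 : k = 2 := by omega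
    rw [hk, h3]
  have hcomm := IsPGroup.isMulCommutative_of_card_eq_prime_sq hPc
  have hab : ∀ y ∈ (P : Subgroup MG), ∀ w ∈ (P : Subgroup MG), y * w = w * y := fun y hy w hw =>
    congrArg Subtype.val (hcomm.is_comm.comm (⟨y, hy⟩ : (P : Subgroup MG)) ⟨w, hw⟩)
  have hcP : c ∈ (P : Subgroup MG) := hP (mem_zpowers c)
  obtain ⟨d, hdP, hdc⟩ : ∃ d ∈ (P : Subgroup MG), d ∉ zpowers c := by
    by_contra hcon
    push Not at hcon
    have h1 := Subgroup.card_dvd_of_le (show (P : Subgroup MG) ≤ zpowers c from hcon)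
    rw [hPc, Nat.card_zpowers, hc] at h1
    norm_num at h1
  have hdcc : d * c = c * d := hab d hdP c hcP
  -- elements of order `11 ^ i` commuting with `c`, outside `⟨c⟩`
  have hord : ∀ {y : MG} (hy : y * c = c * y), y ∉ zpowers c → y ^ 11 ^ 2 = 1 → orderOf (mk c hy) = 11 := by
    intro y hy hyc hy2
    have h1 : orderOf (mk c hy) ∣ 11 ^ 2 := by
      apply orderOf_dvd_of_pow_eq_one
      have h2 : y ^ 11 ^ 2 * c = c * y ^ 11 ^ 2 := (show Commute y c from hy).pow_left _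
      rw [mk_pow' hy _ h2, LThreeMB.mk_eq_one]
      exact ⟨0, by rw [zpow_zero, hy2]⟩
    obtain ⟨n, hn, hn2⟩ := (Nat.dvd_prime_pow Final.prime11).1 h1
    interval_cases n
    · exfalso
      rw [pow_zero, orderOf_eq_one_iff, LThreeMB.mk_eq_one] at hn2
      obtain ⟨i, hi⟩ := hn2
      exact hyc ⟨i, hi⟩
    · rw [hn2, pow_one]
    · exfalso
      apply hsq
      rw [← hn2]
      exact orderOf_dvd_natCard _
  have hd121 : d ^ 11 ^ 2 = 1 := by
    have h1 : (⟨d, hdP⟩ : (P : Subgroup MG)) ^ Nat.card (P : Subgroup MG) = 1 := pow_card_eq_one'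
    rw [hPc] at h1
    have h2 := congrArg Subtype.val h1
    rwa [Subgroup.coe_pow] at h2
  -- an element `g` of `C(c)` moving `d`
  obtain ⟨gb, j, hgb, hjne⟩ := hmX _ (hord hdcc hdc hd121)
  obtain ⟨g, hgc, rfl⟩ := exists_mk gb
  have hgc' : Commute g c := hgc
  have hdc' : Commute d c := hdcc
  have h1 : (g * d * g⁻¹) * c = c * (g * d * g⁻¹) := ((hgc'.mul_left hdc').mul_left hgc'.inv_left)
  have h2 : d ^ j * c = c * d ^ j := hdc'.pow_left j
  have h3 : mk c h2 = mk c h1 := hgb.symm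
  obtain ⟨i, hi⟩ := (mk_eq_mk h2 h1).1 h3
  have hgact : Act c d g 1 j := by
    refine ⟨?_, c ^ i, zpow_mem_zpowers _ _, hi.symm⟩
    rw [hgc, mul_inv_cancel_right, pow_one]
  have hj : j % 11 ≠ 1 := by
    intro hj
    apply hjne
    have h4 : mk c hdcc ^ 11 = 1 := by
      rw [← hord hdcc hdc hd121, pow_orderOf_eq_one]
    rw [← Nat.mod_add_div j 11, hj, pow_add, pow_one, pow_mul, h4, one_pow, mul_one]
  -- `d ^ 11 = 1`
  have hd11 : d ^ 11 = 1 := by
    have h4 : mk c hdcc ^ 11 = 1 := by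
      rw [← hord hdcc hdc hd121, pow_orderOf_eq_one]
    have h5 : d ^ 11 * c = c * d ^ 11 := hdc'.pow_left 11
    have h6 : mk c h5 = 1 := h4
    obtain ⟨t, ht⟩ := (LThreeMB.mk_eq_one h5).1 h6
    -- conjugation by `g` fixes `c ^ t`, but acts as the power `j`
    have h7 : g * d ^ 11 * g⁻¹ = d ^ 11 := by
      rw [← ht, (hgc'.zpow_right t).eq, mul_inv_cancel_right]
    have h8 : (d ^ 11) ^ j = d ^ 11 := by
      have h9 : g * d ^ 11 * g⁻¹ = (d ^ j * c ^ i) ^ 11 := by rw [← conj_pow, hi]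
      rw [h7, ((hdc'.pow_left j).zpow_right i).mul_pow, ← zpow_natCast (c ^ i), ← zpow_mul, mul_comm i, zpow_mul, zpow_natCast, hc11,
        one_zpow, mul_one, ← pow_mul, mul_comm, pow_mul] at h9
      exact h9.symm
    have h9 : (d ^ 11) ^ 11 = 1 := by rw [← pow_mul]; exact hd121
    by_contra hne
    have h10 : orderOf (d ^ 11) = 11 := orderOf_eq_prime h9 hne
    have h11 : (d ^ 11) ^ j = (d ^ 11) ^ 1 := by rw [pow_one]; exact h8
    rw [pow_inj_mod, h10] at h11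
    exact hj h11
  -- an element `h` with `c ^ h = c ^ 2` normalising `P`
  obtain ⟨s2, hs2⟩ := pc_of (k := 2) (by norm_num)
  have hx11 : x ^ 11 = 1 := by rw [← hx, pow_orderOf_eq_one]
  obtain ⟨h0, hh0⟩ := MFive.exists_conj_of_conj chart Final.prime11 (by decide) (x := x) (y := x ^ 2) hx11
    (by rw [← pow_mul, mul_comm, pow_mul, hx11, one_pow]) (s := s2) (by rw [map_pow, hpx]; exact hs2)
  have hk0 : (h0 : MG) * c * (h0 : MG)⁻¹ = c ^ 2 := by
    rw [hcx]
    exact congrArg Subtype.val hh0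
  obtain ⟨k0, hk0'⟩ : ∃ k0 : MG, k0 = (h0 : MG) := ⟨_, rfl⟩
  rw [← hk0'] at hk0
  have hd0 : (k0 * d * k0⁻¹) * c = c * (k0 * d * k0⁻¹) := by
    have h4 : Commute (k0 * d * k0⁻¹) (c ^ 2) := by
      rw [← hk0]
      show k0 * d * k0⁻¹ * (k0 * c * k0⁻¹) = k0 * c * k0⁻¹ * (k0 * d * k0⁻¹)
      calc k0 * d * k0⁻¹ * (k0 * c * k0⁻¹) = k0 * (d * c) * k0⁻¹ := by group
        _ = k0 * (c * d) * k0⁻¹ := by rw [hdcc]
        _ = _ := by group
    have h5 := h4.pow_right 6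
    rw [← c12] at h5
    exact h5
  have hd0n : k0 * d * k0⁻¹ ∉ zpowers c := by
    rintro ⟨i, hi⟩
    have hi' : c ^ i = k0 * d * k0⁻¹ := hi
    apply hdc
    have h6 : k0 * (c ^ 6) ^ i * k0⁻¹ = c ^ i := by
      rw [← conj_zpow, ← conj_pow, hk0, ← c12]
    rw [← h6] at hi'
    have h7 : (c ^ 6) ^ i = d := mul_left_cancel (mul_right_cancel hi')
    rw [← h7]
    exact zpow_mem (npow_mem_zpowers c 6) i
  have hd0o : (k0 * d * k0⁻¹) ^ 11 ^ 2 = 1 := by
    rw [conj_pow, hd121, mul_one, mul_inv_cancel]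
  obtain ⟨vb, hvb⟩ := CpAutON.Gen.conj_into (p := 11) hsq (hord hd0 hd0n hd0o) (hord hdcc hdc hd121)
  obtain ⟨v, hvc, rfl⟩ := exists_mk vb
  obtain ⟨l, hl⟩ := (Submonoid.mem_powers_iff _ _).1 (mem_powers_iff_mem_zpowers.2 hvb)
  have hvc' : Commute v c := hvc
  have h4 : (v * (k0 * d * k0⁻¹) * v⁻¹) * c = c * (v * (k0 * d * k0⁻¹) * v⁻¹) :=
    ((hvc'.mul_left (show Commute _ c from hd0)).mul_left hvc'.inv_left)
  have h5 : d ^ l * c = c * d ^ l := hdc'.pow_left l
  have h6 : mk c h5 = mk c h4 := hl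
  obtain ⟨i', hi'⟩ := (mk_eq_mk h5 h4).1 h6
  have hhact : Act c d (v * k0) 2 l := by
    refine ⟨?_, c ^ i', zpow_mem_zpowers _ _, ?_⟩
    · have h7 : v * k0 * c * (v * k0)⁻¹ = v * (k0 * c * k0⁻¹) * v⁻¹ := by group
      rw [h7, hk0, (hvc'.pow_right 2).eq, mul_inv_cancel_right]
    · have h7 : v * k0 * d * (v * k0)⁻¹ = v * (k0 * d * k0⁻¹) * v⁻¹ := by group
      rw [h7, hi']
  -- the scalar
  obtain ⟨θ, k, hk, hθ⟩ := scalar Final.not_cube hPc hab hcP hdP hc hd11 hdc hgact hj hhact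
  refine moved_of_sylow P ?_
  intro y hy hyo
  refine ⟨θ, k, hθ y hy, ?_⟩
  intro h7
  have h8 : y ^ k = y ^ 1 := by rw [pow_one]; exact h7
  rw [pow_inj_mod, hyo] at h8
  exact hk h8

end Cfsg.Agent.H979.Car
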