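import Cfsg.Agent.H497.Stein.Eng

/-!
# Scalars on a Sylow subgroup of order `11 ^ 2` (helper979, S3852 row M)

* `trans_one` : an element acting on `P`, `|P| = p²`, `p³ ∤ |G|`, as a transvection acts trivially;
* `scalar` : `g` acts on `P = ⟨c, d⟩` as `diag(1, j)` modulo `⟨c⟩`, `j ≠ 1`, `h` as `c ↦ c²`: some word in `g`, `h` acts on
  `P` as a nontrivial power map.
-/

set_option autoImplicit false

namespace Cfsg.Agent.H979.Car

open Subgroup

universe u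

variable {G : Type u} [Group G]

section trans

variable {c d : G}

/-- the elements commuting with `c` and, modulo `⟨c⟩`, with `d` -/
def H2 (c d : G) : Subgroup G where
  carrier := {x | x * c = c * x ∧ x * d * x⁻¹ * d⁻¹ ∈ zpowers c}
  one_mem' := ⟨by rw [one_mul, mul_one], by
    have h : (1 : G) * d * 1⁻¹ * d⁻¹ = 1 := by group
    rw [h]; exact one_mem _⟩
  mul_mem' := by
    rintro x y ⟨hx, hx2⟩ ⟨hy, hy2⟩
    refine ⟨by rw [mul_assoc, hy, ← mul_assoc, hx, mul_assoc], ?_⟩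
    obtain ⟨i, hi⟩ := mem_zpowers_iff.1 hy2
    have h1 : x * y * d * (x * y)⁻¹ * d⁻¹ = x * (y * d * y⁻¹ * d⁻¹) * x⁻¹ * (x * d * x⁻¹ * d⁻¹) := by group
    have h2 : x * c ^ i * x⁻¹ = c ^ i := by
      rw [← conj_zpow, hx, mul_inv_cancel_right]
    rw [h1, ← hi, h2]
    exact mul_mem (zpow_mem_zpowers _ _) hx2
  inv_mem' := by
    rintro x ⟨hx, hx2⟩
    have hx' : x⁻¹ * c = c * x⁻¹ := (show Commute x c from hx).inv_left
    refine ⟨hx', ?_⟩
    obtain ⟨i, hi⟩ := mem_zpowers_iff.1 hx2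
    have h1 : x⁻¹ * d * x⁻¹⁻¹ * d⁻¹ = (x⁻¹ * (x * d * x⁻¹ * d⁻¹) * x⁻¹⁻¹)⁻¹ := by group
    rw [h1, ← hi]
    have h2 : x⁻¹ * c ^ i * x⁻¹⁻¹ = c ^ i := by
      rw [← conj_zpow, hx', mul_inv_cancel_right]
    rw [h2]
    exact inv_mem (zpow_mem_zpowers _ _)

/-- the commutator with `d` -/
def psi (c d : G) : ↥(H2 c d) →* ↥(zpowers c) where
  toFun x := ⟨(x : G) * d * (x : G)⁻¹ * d⁻¹, x.2.2⟩
  map_one' := Subtype.ext (by
    show (1 : G) * d * 1⁻¹ * d⁻¹ = 1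
    group)
  map_mul' x y := Subtype.ext (by
    show (x : G) * (y : G) * d * ((x : G) * (y : G))⁻¹ * d⁻¹ = ((x : G) * d * (x : G)⁻¹ * d⁻¹) * ((y : G) * d * (y : G)⁻¹ * d⁻¹)
    obtain ⟨i, hi⟩ := mem_zpowers_iff.1 y.2.2
    obtain ⟨k, hk⟩ := mem_zpowers_iff.1 x.2.2
    have h1 : (x : G) * (y : G) * d * ((x : G) * (y : G))⁻¹ * d⁻¹ =
      (x : G) * ((y : G) * d * (y : G)⁻¹ * d⁻¹) * (x : G)⁻¹ * ((x : G) * d * (x : G)⁻¹ * d⁻¹) := by group
    have h2 : (x : G) * c ^ i * (x : G)⁻¹ = c ^ i := by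
      rw [← conj_zpow, x.2.1, mul_inv_cancel_right]
    rw [h1, ← hi, h2, ← hk, ← zpow_add, ← zpow_add, add_comm])

/-- **Transvections have order `p`.** -/
theorem trans_one [Finite G] {p : ℕ} (hp : p.Prime) (h3 : ¬ p ^ 3 ∣ Nat.card G) {P : Subgroup G} (hP : Nat.card ↥P = p ^ 2)
    (hc : orderOf c = p) (hPc : ∀ x ∈ P, x * c = c * x) (hPd : ∀ x ∈ P, x * d = d * x) {u w : G}
    (huc : u * c = c * u) (hw : w ∈ zpowers c) (hud : u * d * u⁻¹ = d * w) (hdc : d * c = c * d) : w = 1 := by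
  by_contra hne
  have hFp : Fact p.Prime := ⟨hp⟩
  have hdw : d * w = w * d := by
    obtain ⟨i, rfl⟩ := mem_zpowers_iff.1 hw
    exact (show Commute d c from hdc).zpow_right i
  have hud2 : u * d * u⁻¹ * d⁻¹ = w := by rw [hud, hdw, mul_inv_cancel_right]
  have huH : u ∈ H2 c d := ⟨huc, by rw [hud2]; exact hw⟩
  have hPH : P ≤ H2 c d := fun x hx => ⟨hPc x hx, by
    rw [hPd x hx, mul_inv_cancel_right, mul_inv_cancel]; exact one_mem _⟩
  have hPk : P.subgroupOf (H2 c d) ≤ (psi c d).ker := by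
    intro x hx
    rw [MonoidHom.mem_ker]
    refine Subtype.ext ?_
    show (x : G) * d * (x : G)⁻¹ * d⁻¹ = 1
    rw [hPd x (mem_subgroupOf.1 hx), mul_inv_cancel_right, mul_inv_cancel]
  have h1 : p ^ 2 ∣ Nat.card ↥(psi c d).ker := by
    rw [← hP, ← Nat.card_congr (subgroupOfEquivOfLe hPH).toEquiv]
    exact Subgroup.card_dvd_of_le hPk
  have h2 : p ∣ Nat.card ↥(psi c d).range := by
    have h4 : Nat.card ↥(psi c d).range ∣ p := by
      have := Subgroup.card_subgroup_dvd_card (psi c d).range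
      rwa [Nat.card_zpowers, hc] at this
    rcases (Nat.dvd_prime hp).1 h4 with h5 | h5
    · exfalso
      have h6 := Subgroup.eq_bot_of_card_eq _ h5
      have h7 : psi c d ⟨u, huH⟩ ∈ (psi c d).range := ⟨_, rfl⟩
      rw [h6, mem_bot] at h7
      have h8 : u * d * u⁻¹ * d⁻¹ = 1 := congrArg Subtype.val h7
      rw [hud2] at h8
      exact hne h8
    · rw [h5]
  apply h3
  have h4 : Nat.card ↥(psi c d).ker * Nat.card ↥(psi c d).range = Nat.card ↥(H2 c d) := by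
    rw [← Subgroup.index_ker]
    exact Subgroup.card_mul_index _
  calc p ^ 3 = p ^ 2 * p := by ring
    _ ∣ _ := mul_dvd_mul h1 h2
    _ = _ := h4
    _ ∣ _ := Subgroup.card_subgroup_dvd_card _

end trans

/-- `θ` acts as `c ↦ c ^ a`, and as `d ↦ d ^ b` modulo `⟨c⟩` -/
def Act (c d θ : G) (a b : ℕ) : Prop := θ * c * θ⁻¹ = c ^ a ∧ ∃ w ∈ zpowers c, θ * d * θ⁻¹ = d ^ b * w

theorem Act.one (c d : G) : Act c d 1 1 1 :=
  ⟨by rw [one_mul, inv_one, mul_one, pow_one], 1, one_mem _, by rw [one_mul, inv_one, mul_one, pow_one, mul_one]⟩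

theorem Act.mul {c d θ η : G} {a b a' b' : ℕ} (hdc : d * c = c * d) (h : Act c d θ a b) (h' : Act c d η a' b') :
    Act c d (θ * η) (a * a') (b * b') := by
  obtain ⟨h1, w, hw, h2⟩ := h
  obtain ⟨h3, w', hw', h4⟩ := h'
  have hdw : Commute (d ^ b) w := by
    obtain ⟨i, rfl⟩ := mem_zpowers_iff.1 hw
    exact ((show Commute d c from hdc).zpow_right i).pow_left b
  refine ⟨?_, w ^ b' * (θ * w' * θ⁻¹), mul_mem (pow_mem hw _) ?_, ?_⟩
  · have e : θ * η * c * (θ * η)⁻¹ = θ * (η * c * η⁻¹) * θ⁻¹ := by group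
    rw [e, h3, ← conj_pow, h1, ← pow_mul]
  · obtain ⟨i, rfl⟩ := mem_zpowers_iff.1 hw'
    rw [← conj_zpow, h1]
    exact zpow_mem (npow_mem_zpowers c a) i
  · have e : θ * η * d * (θ * η)⁻¹ = θ * (η * d * η⁻¹) * θ⁻¹ := by group
    have e2 : θ * (d ^ b' * w') * θ⁻¹ = (θ * d ^ b' * θ⁻¹) * (θ * w' * θ⁻¹) := by group
    rw [e, h4, e2, ← conj_pow, h2, hdw.mul_pow, ← pow_mul, mul_assoc]

theorem Act.pow {c d θ : G} {a b : ℕ} (hdc : d * c = c * d) (h : Act c d θ a b) (n : ℕ) :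
    Act c d (θ ^ n) (a ^ n) (b ^ n) := by
  induction n with
  | zero => rw [pow_zero, pow_zero, pow_zero]; exact Act.one c d
  | succ n ih => rw [pow_succ, pow_succ, pow_succ]; exact ih.mul hdc h

/-- the powers of `θ`, acting as a scalar times a transvection -/
theorem pow_act {c d θ w : G} {k : ℕ} (hdc : d * c = c * d) (hw : w ∈ zpowers c) (h1 : θ * c * θ⁻¹ = c ^ k)
    (h2 : θ * d * θ⁻¹ = d ^ k * w) (n : ℕ) :
    θ ^ (n + 1) * d * (θ ^ (n + 1))⁻¹ = d ^ (k ^ (n + 1)) * w ^ ((n + 1) * k ^ n) := by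
  have hdw : Commute d w := by
    obtain ⟨i, rfl⟩ := mem_zpowers_iff.1 hw
    exact (show Commute d c from hdc).zpow_right i
  have hw2 : θ * w * θ⁻¹ = w ^ k := by
    obtain ⟨i, rfl⟩ := mem_zpowers_iff.1 hw
    rw [← conj_zpow, h1, ← zpow_natCast, ← zpow_natCast, ← zpow_mul, ← zpow_mul, mul_comm]
  induction n with
  | zero => rw [zero_add, pow_one, pow_one, pow_zero, one_mul, pow_one]; exact h2
  | succ n ih =>
    have e : θ ^ (n + 1 + 1) * d * (θ ^ (n + 1 + 1))⁻¹ = θ * (θ ^ (n + 1) * d * (θ ^ (n + 1))⁻¹) * θ⁻¹ := by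
      rw [pow_succ' θ (n + 1)]; group
    have e2 : ∀ A B : G, θ * (A * B) * θ⁻¹ = (θ * A * θ⁻¹) * (θ * B * θ⁻¹) := fun A B => by group
    rw [e, ih, e2, ← conj_pow, ← conj_pow, h2, hw2, (hdw.pow_left k).mul_pow, ← pow_mul, ← pow_mul, mul_assoc, ← pow_add]
    congr 2 <;> ring

/-- **Scalars.** -/
theorem scalar [Finite G] (h3 : ¬ 11 ^ 3 ∣ Nat.card G) {P : Subgroup G} (hP : Nat.card ↥P = 11 ^ 2)
    (hab : ∀ x ∈ P, ∀ y ∈ P, x * y = y * x) {c d : G} (hcP : c ∈ P) (hdP : d ∈ P) (hc : orderOf c = 11)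
    (hd : d ^ 11 = 1) (hdc : d ∉ zpowers c) {g h : G} {j l : ℕ} (hg : Act c d g 1 j) (hj : j % 11 ≠ 1)
    (hh : Act c d h 2 l) : ∃ (θ : G) (k : ℕ), k % 11 ≠ 1 ∧ ∀ y ∈ P, θ * y * θ⁻¹ = y ^ k := by
  have hF : Fact (Nat.Prime 11) := ⟨by norm_num⟩
  have hcd : d * c = c * d := hab d hdP c hcP
  have hc11 : c ^ 11 = 1 := by rw [← hc, pow_orderOf_eq_one]
  -- the exponents are prime to 11
  have hj0 : j % 11 ≠ 0 := by
    intro h0
    obtain ⟨h1, w, hw, h2⟩ := hg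
    have h4 : d ^ j = 1 := by
      obtain ⟨t, rfl⟩ := Nat.dvd_of_mod_eq_zero h0
      rw [pow_mul, hd, one_pow]
    rw [h4, one_mul] at h2
    rw [pow_one] at h1
    apply hdc
    have h5 : d = g⁻¹ * w * g := by rw [← h2]; group
    obtain ⟨i, rfl⟩ := mem_zpowers_iff.1 hw
    have h6 : Commute g c := mul_inv_eq_iff_eq_mul.1 h1
    rw [h5, mul_assoc, ← (h6.zpow_right i).eq, inv_mul_cancel_left]
    exact zpow_mem_zpowers _ _
  have hl0 : l % 11 ≠ 0 := by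
    intro h0
    obtain ⟨h1, w, hw, h2⟩ := hh
    have h4 : d ^ l = 1 := by
      obtain ⟨t, rfl⟩ := Nat.dvd_of_mod_eq_zero h0
      rw [pow_mul, hd, one_pow]
    rw [h4, one_mul] at h2
    apply hdc
    obtain ⟨i, rfl⟩ := mem_zpowers_iff.1 hw
    have h5 : c = (c ^ 2) ^ 6 := by
      rw [← pow_mul, show 2 * 6 = 11 + 1 from rfl, pow_succ, hc11, one_mul]
    have h6 : h * (c ^ 6) ^ i * h⁻¹ = c ^ i := by
      rw [← conj_zpow, ← conj_pow, h1, ← h5]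
    have h7 : d = (c ^ 6) ^ i := by
      rw [← h6] at h2
      exact mul_left_cancel (mul_right_cancel h2)
    rw [h7]
    exact zpow_mem (npow_mem_zpowers c 6) i
  -- a word acting with equal eigenvalues
  obtain ⟨a, b, hab1, hab2⟩ : ∃ a b : ℕ, (2 ^ a) % 11 = (l ^ a * j ^ b) % 11 ∧ (2 ^ a) % 11 ≠ 1 := by
    have key : ∀ r s : Fin 11, r.1 ≠ 0 → s.1 ≠ 0 → s.1 ≠ 1 →
        ∃ a b : Fin 11, (2 ^ a.1) % 11 = (r.1 ^ a.1 * s.1 ^ b.1) % 11 ∧ (2 ^ a.1) % 11 ≠ 1 := by decide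
    obtain ⟨a, b, h1, h2⟩ := key ⟨l % 11, Nat.mod_lt _ (by norm_num)⟩ ⟨j % 11, Nat.mod_lt _ (by norm_num)⟩ hl0 hj0 hj
    refine ⟨a.1, b.1, ?_, h2⟩
    rw [h1, Nat.mul_mod (l ^ a.1), Nat.pow_mod l, Nat.pow_mod j, ← Nat.mul_mod]
  have hθ : Act c d (h ^ a * g ^ b) (2 ^ a * 1 ^ b) (l ^ a * j ^ b) := (hh.pow hcd a).mul hcd (hg.pow hcd b)
  rw [one_pow, mul_one] at hθ
  obtain ⟨h1, w, hw, h2⟩ := hθ
  have h4 : d ^ (l ^ a * j ^ b) = d ^ (2 ^ a) := by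
    rw [← Nat.mod_add_div (l ^ a * j ^ b) 11, ← hab1, pow_add, pow_mul, hd, one_pow, mul_one]
    conv_rhs => rw [← Nat.mod_add_div (2 ^ a) 11, pow_add, pow_mul, hd, one_pow, mul_one]
  rw [h4] at h2
  set θ := h ^ a * g ^ b with hθd
  have h5 := pow_act hcd hw h1 h2 9
  have hfer : (2 ^ a) ^ 10 % 11 = 1 := by
    rw [← pow_mul, mul_comm, pow_mul, Nat.pow_mod]
    norm_num
  have h6 : d ^ ((2 ^ a) ^ (9 + 1)) = d := by
    rw [← Nat.mod_add_div ((2 ^ a) ^ (9 + 1)) 11, hfer, pow_add, pow_mul, hd, one_pow, mul_one, pow_one]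
  have h7 : θ ^ (9 + 1) * c * (θ ^ (9 + 1))⁻¹ = c := by
    have h8 := (Act.pow (θ := θ) (a := 2 ^ a) (b := 2 ^ a) hcd ⟨h1, w, hw, h2⟩ (9 + 1)).1
    rw [h8, ← Nat.mod_add_div ((2 ^ a) ^ (9 + 1)) 11, hfer, pow_add, pow_mul, hc11, one_pow, mul_one, pow_one]
  rw [h6] at h5
  have h8 := trans_one (p := 11) (by norm_num) h3 hP hc (fun x hx => hab x hx c hcP) (fun x hx => hab x hx d hdP)
    (mul_inv_eq_iff_eq_mul.1 h7) (pow_mem hw _) h5 hcd
  have hw1 : w = 1 := by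
    obtain ⟨i, rfl⟩ := mem_zpowers_iff.1 hw
    have h9 : (c ^ i) ^ 11 = 1 := by
      rw [← zpow_natCast, ← zpow_mul, mul_comm, zpow_mul, zpow_natCast, hc11, one_zpow]
    have h10 := Nat.dvd_gcd (orderOf_dvd_of_pow_eq_one h8) (orderOf_dvd_of_pow_eq_one h9)
    have h11 : Nat.gcd ((9 + 1) * (2 ^ a) ^ 9) 11 = 1 := by
      apply Nat.Coprime.mul_left (by norm_num)
      apply Nat.Coprime.pow_left
      apply Nat.Coprime.pow_left
      norm_num
    rw [h11] at h10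
    exact orderOf_eq_one_iff.1 (Nat.dvd_one.1 h10)
  rw [hw1, mul_one] at h2
  refine ⟨θ, 2 ^ a, hab2, ?_⟩
  -- the subgroup on which `θ` is a power map
  let D : Subgroup G :=
    { carrier := {y | y ∈ P ∧ θ * y * θ⁻¹ = y ^ (2 ^ a)}
      one_mem' := ⟨one_mem _, by rw [mul_one, mul_inv_cancel, one_pow]⟩
      mul_mem' := by
        rintro x y ⟨hx, hx2⟩ ⟨hy, hy2⟩
        refine ⟨mul_mem hx hy, ?_⟩
        have e : θ * (x * y) * θ⁻¹ = (θ * x * θ⁻¹) * (θ * y * θ⁻¹) := by group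
        rw [e, hx2, hy2, (show Commute x y from hab x hx y hy).mul_pow]
      inv_mem' := by
        rintro x ⟨hx, hx2⟩
        refine ⟨inv_mem hx, ?_⟩
        have e : θ * x⁻¹ * θ⁻¹ = (θ * x * θ⁻¹)⁻¹ := by group
        rw [e, hx2, inv_pow] }
  have hDP : D ≤ P := fun y hy => hy.1
  have hcD : zpowers c ≤ D := by
    rw [zpowers_le]
    exact ⟨hcP, h1⟩
  have hdD : d ∈ D := ⟨hdP, h2⟩
  have hDc : Nat.card ↥D = 11 ^ 2 := by
    have h9 := Subgroup.card_dvd_of_le hDP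
    rw [hP] at h9
    obtain ⟨n, hn, hn2⟩ := (Nat.dvd_prime_pow (by norm_num)).1 h9
    have h10 := Subgroup.card_dvd_of_le hcD
    rw [Nat.card_zpowers, hc] at h10
    interval_cases n
    · rw [hn2] at h10; norm_num at h10
    · exfalso
      have h11 : zpowers c = D := eq_of_le_of_card_ge hcD (by rw [hn2, Nat.card_zpowers, hc, pow_one])
      rw [← h11] at hdD
      exact hdc hdD
    · exact hn2
  have hDe : D = P := eq_of_le_of_card_ge hDP (by rw [hDc, hP])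
  intro y hy
  rw [← hDe] at hy
  exact hy.2

end Cfsg.Agent.H979.Car
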